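import Cfsg.Agent.H63.E7.Cnt

/-! Sylow 7-subgroup of `A₁₄`, Sylow 5-subgroup of `A₁₅`. -/

set_option autoImplicit false

namespace Cfsg.Agent.H63.E7

open Multiplicative

theorem pow_val_add {S : Type*} [Group S] {s : ℕ} [NeZero s] {a : S} (ha : a ^ s = 1) (x y : ZMod s) :
    a ^ (x + y).val = a ^ x.val * a ^ y.val := by rw [ZMod.val_add, ← pow_eq_pow_mod _ ha, pow_add]

def a7 : Fin 2 → Equiv.Perm (Fin 14) := ![c[0, 1, 2, 3, 4, 5, 6], c[7, 8, 9, 10, 11, 12, 13]]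
def m7 : Fin 2 → Equiv.Perm (Fin 14) :=
  ![c[1, 2, 4] * c[3, 6, 5], c[0, 7] * c[1, 8, 6, 13] * c[2, 9, 5, 12] * c[3, 10, 4, 11]]
def a5 : Fin 3 → Equiv.Perm (Fin 15) := ![c[0, 1, 2, 3, 4], c[5, 6, 7, 8, 9], c[10, 11, 12, 13, 14]]
def m5 : Fin 2 → Equiv.Perm (Fin 15) :=
  ![c[1, 2, 4, 3] * c[5, 10] * c[6, 11] * c[7, 12] * c[8, 13] * c[9, 14],
    c[0, 5, 10] * c[1, 6, 11] * c[2, 7, 12] * c[3, 8, 13] * c[4, 9, 14]]

theorem a7_ok : (∀ i, Equiv.Perm.sign (a7 i) = 1 ∧ a7 i ^ 7 = 1 ∧ ∀ j, a7 i * a7 j = a7 j * a7 i) ∧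
    ∀ j, Equiv.Perm.sign (m7 j) = 1 := by decide +kernel
theorem a5_ok : (∀ i, Equiv.Perm.sign (a5 i) = 1 ∧ a5 i ^ 5 = 1 ∧ ∀ j, a5 i * a5 j = a5 j * a5 i) ∧
    ∀ j, Equiv.Perm.sign (m5 j) = 1 := by decide +kernel

/-- translations of the blocks -/
def tr7 (v : V7) : Equiv.Perm (Fin 14) := a7 0 ^ v.1.val * a7 1 ^ v.2.val
def tr5 (v : V5) : Equiv.Perm (Fin 15) := a5 0 ^ v.1.val * a5 1 ^ v.2.1.val * a5 2 ^ v.2.2.val

theorem tr7_ok : ∀ v, (tr7 v = 1 → v = 0) ∧ ∀ j, m7 j * tr7 v = tr7 (f7 j v) * m7 j := by decide +kernel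
theorem tr5_ok : ∀ v, (tr5 v = 1 → v = 0) ∧ ∀ j, m5 j * tr5 v = tr5 (f5 j v) * m5 j := by decide +kernel

def i7 : Multiplicative V7 →* alternatingGroup (Fin 14) :=
  MonoidHom.mk' (fun v => ⟨tr7 v.toAdd, by simp [tr7, (a7_ok.1 _).1]⟩) fun v w => Subtype.ext (by
    have c : ∀ i j m n, Commute (a7 i ^ m) (a7 j ^ n) := fun i j => Commute.pow_pow ((a7_ok.1 i).2.2 j)
    simp only [tr7, toAdd_mul, Prod.fst_add, Prod.snd_add, pow_val_add (a7_ok.1 _).2.1, Subgroup.coe_mul]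
    exact (c 0 1 _ _).mul_mul_mul_comm _ _)

def i5 : Multiplicative V5 →* alternatingGroup (Fin 15) :=
  MonoidHom.mk' (fun v => ⟨tr5 v.toAdd, by simp [tr5, (a5_ok.1 _).1]⟩) fun v w => Subtype.ext (by
    have c : ∀ i j m n, Commute (a5 i ^ m) (a5 j ^ n) := fun i j => Commute.pow_pow ((a5_ok.1 i).2.2 j)
    simp only [tr5, toAdd_mul, Prod.fst_add, Prod.snd_add, pow_val_add (a5_ok.1 _).2.1, Subgroup.coe_mul]
    rw [(c 0 1 _ _).mul_mul_mul_comm]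
    exact ((c 0 2 _ _).mul_left (c 1 2 _ _)).mul_mul_mul_comm _ _)

theorem i7_inj : Function.Injective i7 :=
  (injective_iff_map_eq_one _).2 fun v h => (tr7_ok v.toAdd).1 (congrArg Subtype.val h)

theorem i5_inj : Function.Injective i5 :=
  (injective_iff_map_eq_one _).2 fun v h => (tr5_ok v.toAdd).1 (congrArg Subtype.val h)

theorem i7_ind : ¬ 7 ∣ i7.range.index := fun h => by
  have := i7.range.card_mul_index
  rw [← Nat.card_congr (MonoidHom.ofInjective i7_inj).toEquiv, nat_card_alternatingGroup] at this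
  simp [Nat.factorial] at this
  omega

theorem i5_ind : ¬ 5 ∣ i5.range.index := fun h => by
  have := i5.range.card_mul_index
  rw [← Nat.card_congr (MonoidHom.ofInjective i5_inj).toEquiv, nat_card_alternatingGroup] at this
  simp [Nat.factorial] at this
  omega

end Cfsg.Agent.H63.E7
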