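import Cfsg.Agent.H50.Maschke

/-! A minimal invariant `s`-subgroup over an irreducible section. -/

set_option autoImplicit false

namespace Cfsg.Agent.H63.E7

open Subgroup

variable {G S V : Type*} [Group G] [Group S] [AddCommGroup V] {s : ℕ}

def Inv (B P : Subgroup G) : Prop := ∀ b ∈ B, ∀ x ∈ P, b * x * b⁻¹ ∈ P

def Cm (U : Subgroup G) : Prop := ∀ x ∈ U, ∀ y ∈ U, x * y = y * x

/-- `n`-th powers of a commutative subgroup -/
def pw (U : Subgroup G) (hU : Cm U) (n : ℕ) : Subgroup G where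
  carrier := {y | ∃ x ∈ U, x ^ n = y}
  one_mem' := ⟨1, one_mem _, one_pow _⟩
  mul_mem' := by
    rintro _ _ ⟨x, hx, rfl⟩ ⟨y, hy, rfl⟩
    exact ⟨x * y, mul_mem hx hy, Commute.mul_pow (hU x hx y hy) n⟩
  inv_mem' := by rintro _ ⟨x, hx, rfl⟩; exact ⟨x⁻¹, inv_mem hx, inv_pow _ _⟩

def pre (U : Subgroup G) (hU : Cm U) (n : ℕ) (W : Subgroup G) : Subgroup G where
  carrier := {x | x ∈ U ∧ x ^ n ∈ W}
  one_mem' := ⟨one_mem _, by rw [one_pow]; exact one_mem _⟩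
  mul_mem' := fun {x y} hx hy => ⟨mul_mem hx.1 hy.1, by
    rw [Commute.mul_pow (hU x hx.1 y hy.1) n]; exact mul_mem hx.2 hy.2⟩
  inv_mem' := fun {x} hx => ⟨inv_mem hx.1, by rw [inv_pow]; exact inv_mem hx.2⟩

theorem Inv.pw {B U : Subgroup G} (h : Inv B U) (hU : Cm U) (n : ℕ) : Inv B (pw U hU n) := by
  rintro b hb _ ⟨x, hx, rfl⟩
  exact ⟨_, h b hb x hx, conj_pow⟩

theorem Inv.pre {B U W : Subgroup G} (h : Inv B U) (hU : Cm U) (n : ℕ) (hW : Inv B W) : Inv B (pre U hU n W) :=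
  fun b hb x hx => ⟨h b hb x hx.1, by rw [conj_pow]; exact hW b hb _ hx.2⟩

theorem Inv.ker {B U : Subgroup G} (h : Inv B U) (φ : G →* S) : Inv B (φ.ker ⊓ U) :=
  fun b hb x hx => ⟨φ.normal_ker.conj_mem x hx.1 b, h b hb x hx.2⟩

theorem Inv.le [Finite G] {B U : Subgroup G} (h : Inv B U) : B ≤ normalizer (U : Set G) :=
  fun b hb => mem_normalizer_fintype (h b hb)

structure Mn (φ : G →* S) (Q : Subgroup S) (B P : Subgroup G) : Prop where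
  inv : Inv B P
  map : P.map φ = Q
  min : ∀ P' ≤ P, Inv B P' → P' = P ∨ P' ≤ φ.ker

variable [Finite G] {φ : G →* S} {B P : Subgroup G}

theorem exists_mn {Q : Subgroup S} {P₀ : Subgroup G} (h1 : Inv B P₀) (h2 : P₀.map φ = Q)
    (hirr : ∀ U ≤ Q, (∀ b ∈ B, ∀ x ∈ U, φ b * x * (φ b)⁻¹ ∈ U) → U = ⊥ ∨ U = Q) : ∃ P ≤ P₀, Mn φ Q B P := by
  obtain ⟨P, ⟨a, b, c⟩, hm⟩ := exists_minimal_of_wellFoundedLT (fun P => P ≤ P₀ ∧ Inv B P ∧ P.map φ = Q) ⟨P₀, le_rfl, h1, h2⟩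
  refine ⟨P, a, b, c, fun P' h h' => ?_⟩
  rcases hirr (P'.map φ) (c ▸ map_mono h) (by
    rintro g hg _ ⟨x, hx, rfl⟩
    exact ⟨_, h' g hg x hx, by rw [map_mul, map_mul, map_inv]⟩) with e | e
  · exact .inr ((Subgroup.map_eq_bot_iff _).1 e)
  · exact .inl (le_antisymm h (hm ⟨h.trans a, h', e⟩ h))

theorem Mn.abel [hs : Fact s.Prime] [Nontrivial V] {ι : Multiplicative V →* S} (h : Mn φ ι.range B P)
    (hι : Function.Injective ι) (hB : (Nat.card B).Coprime s) (hP : IsPGroup s P) (hc : Cm P) :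
    ∃ ε : Multiplicative V →* G, Function.Injective ε ∧ (∀ v, ε v ∈ P) ∧
      ∀ b ∈ B, ∀ v v', φ b * ι v * (φ b)⁻¹ = ι v' → b * ε v * b⁻¹ = ε v' := by
  classical
  have hne : ¬ P ≤ φ.ker := fun e => by
    obtain ⟨v, hv⟩ := exists_ne (1 : Multiplicative V)
    obtain ⟨x, hx, e'⟩ := h.map.ge ⟨v, rfl⟩
    exact hv (hι (e'.symm.trans ((e hx).trans (map_one ι).symm)))
  have hex : ∃ k, ∀ x ∈ P, x ^ s ^ k = 1 := by
    obtain ⟨k, hk⟩ := hP.exists_card_eq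
    exact ⟨k, fun x hx => congrArg Subtype.val (show (⟨x, hx⟩ : P) ^ s ^ k = 1 from hk ▸ pow_card_eq_one')⟩
  obtain ⟨j, hj⟩ : ∃ j, Nat.find hex = j + 1 := Nat.exists_eq_succ_of_ne_zero fun e => hne fun x hx => by
    have := Nat.find_spec hex x hx
    rw [e, pow_zero, pow_one] at this
    rw [this]; exact one_mem _
  have h1 : ∀ x ∈ P, x ^ s ^ (j + 1) = 1 := hj ▸ Nat.find_spec hex
  have h2 : pre P hc (s ^ j) ⊥ ≤ φ.ker :=
    (h.min (pre P hc (s ^ j) ⊥) (fun _ hx => hx.1) (h.inv.pre hc _ fun b _ x hx => by simp [mem_bot.1 hx])).resolve_left fun e =>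
      Nat.find_min hex (hj ▸ j.lt_succ_self) fun x hx => (e.ge hx).2
  have hK : Cm (φ.ker ⊓ P) := fun x hx y hy => hc x hx.2 y hy.2
  have hEP : pw P hc (s ^ j) ≤ P := by rintro _ ⟨x, hx, rfl⟩; exact pow_mem hx _
  obtain ⟨W, w1, w2, w3, w4⟩ := H50.maschke (p := s) (A := B) (U := pw _ hK (s ^ j)) (V := pw P hc (s ^ j))
    ⟨⟨⟨fun a b => Subtype.ext (hc _ (hEP a.2) _ (hEP b.2))⟩⟩, by
      rintro _ ⟨x, hx, rfl⟩; rw [← pow_mul, ← pow_succ, h1 x hx]⟩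
    (h.inv.pw hc _).le hB (by rintro _ ⟨x, hx, rfl⟩; exact ⟨x, hx.2, rfl⟩) ((h.inv.ker φ).pw hK _).le
  have h3 : pre P hc (s ^ j) W = P :=
    (h.min (pre P hc (s ^ j) W) (fun _ hx => hx.1)
      (h.inv.pre hc _ fun b hb x hx => (mem_normalizer_iff.1 (w2 hb) x).1 hx)).resolve_right fun e => hne fun x hx => by
        have hn : pw _ hK (s ^ j) ≤ normalizer (W : Set G) := by
          rintro _ ⟨k, hk, rfl⟩
          refine mem_normalizer_fintype fun y hy => ?_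
          rwa [hc _ (pow_mem hk.2 _) y (hEP (w1 hy)), mul_inv_cancel_right]
        have hm : x ^ s ^ j ∈ pw _ hK (s ^ j) ⊔ W := w4.ge ⟨x, hx, rfl⟩
        obtain ⟨_, ⟨k, hk, rfl⟩, w, hw, e'⟩ := (H49.mem_sup_of_norm_right hn).1 hm
        have : k⁻¹ * x ∈ φ.ker := e ⟨mul_mem (inv_mem hk.2) hx, by
          rw [Commute.mul_pow (hc _ (inv_mem hk.2) _ hx), e', inv_pow, inv_mul_cancel_left]; exact hw⟩
        simpa using mul_mem hk.1 this
  have h4 : ∀ x ∈ P, ∀ y ∈ P, (φ x = φ y ↔ x ^ s ^ j = y ^ s ^ j) := fun x hx y hy => by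
    have e : (x * y⁻¹) ^ s ^ j = x ^ s ^ j * (y ^ s ^ j)⁻¹ := by
      rw [Commute.mul_pow (hc _ hx _ (inv_mem hy)), inv_pow]
    have hm := mul_mem hx (inv_mem hy)
    rw [← mul_inv_eq_one, ← map_inv, ← map_mul, ← mul_inv_eq_one (a := x ^ s ^ j), ← e]
    exact ⟨fun h' => mem_bot.1 (w3.le ⟨⟨_, ⟨h', hm⟩, rfl⟩, (h3.ge hm).2⟩), fun h' => h2 ⟨hm, h'⟩⟩
  have h5 : ∀ v, ∃ x ∈ P, φ x = ι v := fun v => h.map.ge ⟨v, rfl⟩
  choose x hx hφ using h5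
  refine ⟨MonoidHom.mk' (fun v => x v ^ s ^ j) fun a b => ?_, fun a b e => hι ?_, fun v => pow_mem (hx v) _,
    fun b hb v v' e => ?_⟩
  · rw [← Commute.mul_pow (hc _ (hx a) _ (hx b)), ← h4 _ (hx _) _ (mul_mem (hx a) (hx b)), map_mul φ, hφ, hφ, hφ, map_mul]
  · rw [← hφ, ← hφ]; exact (h4 _ (hx a) _ (hx b)).2 e
  · change b * x v ^ s ^ j * b⁻¹ = x v' ^ s ^ j
    rw [← conj_pow, ← h4 _ (h.inv b hb _ (hx v)) _ (hx v'), map_mul, map_mul, map_inv, hφ, hφ, e]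

theorem Mn.nonab {Q : Subgroup S} (h : Mn φ Q B P) {A : Subgroup G} (hA : Cm A) (hs : 1 < s)
    (hst : ∀ x ∈ P, x ∉ A → ∀ y ∈ P, ∃ i : ℕ, y * x ^ i ∈ A) (hi : A.relIndex P ≤ s) (hQ : s * s ≤ Nat.card Q)
    (hc : ¬ Cm P) : Nat.card Q ≤ s * s ∧ ∀ x ∈ P, φ x = 1 → ∀ y ∈ P, x * y = y * x := by
  have hn : ∀ U W : Subgroup G, U.relIndex W ≠ 0 := fun U W => index_ne_zero_of_finite
  have hq : (φ.ker ⊓ P).relIndex P = Nat.card Q := by rw [inf_relIndex_right, relIndex_ker, h.map]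
  have hZ : P ⊓ centralizer P ≤ φ.ker := (h.min _ inf_le_left fun b hb x hx => ⟨h.inv b hb x hx.1, fun y hy => by
    have := hx.2 _ (h.inv b⁻¹ (inv_mem hb) y hy)
    calc _ = b * (b⁻¹ * y * b⁻¹⁻¹ * x) * b⁻¹ := by group
      _ = _ := by rw [this]; group⟩).resolve_left fun e => hc fun x hx y hy => (e.ge hy).2 x hx
  by_cases hI : Inv B (A ⊓ P)
  · have h1 := (h.min _ inf_le_right hI).resolve_left fun e => hc fun x hx y hy => hA x (e.ge hx).1 y (e.ge hy).1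
    have h2 := relIndex_le_of_le_left (L := P) (le_inf h1 inf_le_right) (hn _ _)
    rw [hq, inf_relIndex_right] at h2
    nlinarith
  simp only [Inv, not_forall] at hI
  obtain ⟨b, hb, a, ha, hI⟩ := hI
  have hP : P.map (MulAut.conj b).toMonoidHom = P := le_antisymm (by rintro _ ⟨x, hx, rfl⟩; exact h.inv b hb x hx)
    fun x hx => ⟨_, h.inv b⁻¹ (inv_mem hb) x hx, by simp [mul_assoc]⟩
  set A' := A.map (MulAut.conj b).toMonoidHom with hA'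
  have h1 : A'.relIndex P = A.relIndex P := by
    rw [← relIndex_map_map_of_injective A P (f := (MulAut.conj b).toMonoidHom) (MulAut.conj b).injective, hP]
  have h2 : A ⊓ A' ⊓ P ≤ P ⊓ centralizer P := by
    rintro t ⟨⟨ht, u, hu, e⟩, ht'⟩
    refine ⟨ht', fun y hy => ?_⟩
    obtain ⟨i, hi⟩ := hst _ (h.inv b hb a ha.2) (fun e => hI ⟨e, h.inv b hb a ha.2⟩) y hy
    have c1 : Commute (b * a * b⁻¹) t := by
      rw [← e]; exact (show Commute a u from hA a ha.1 u hu).map (MulAut.conj b).toMonoidHom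
    have c2 : Commute (y * (b * a * b⁻¹) ^ i) t := hA _ hi t ht
    have := (c2.mul_left (c1.pow_left i).inv_left).eq
    rwa [mul_inv_cancel_right] at this
  have h3 : (A ⊓ A' ⊓ P).relIndex P ≤ s * s := by
    rw [inf_relIndex_right]
    exact relIndex_inf_le.trans (Nat.mul_le_mul hi (h1 ▸ hi))
  have h4 := relIndex_mul_relIndex (A ⊓ A' ⊓ P) (φ.ker ⊓ P) P (le_inf (h2.trans hZ) inf_le_right) inf_le_right
  rw [hq] at h4
  have h5 := Nat.pos_of_ne_zero (hn (A ⊓ A' ⊓ P) (φ.ker ⊓ P))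
  have h6 : (A ⊓ A' ⊓ P).relIndex (φ.ker ⊓ P) = 1 := by nlinarith
  refine ⟨by rw [h6, one_mul] at h4; omega, fun x hx e y hy => ((h2 (relIndex_eq_one.1 h6 ⟨e, hx⟩)).2 y hy).symm⟩

end Cfsg.Agent.H63.E7
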