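import Cfsg.Agent.H63.E7.Tor
import Cfsg.Agent.H63.E7.Cnt

/-! No section `7² : 36` or `5³ : 192` over a Sylow subgroup in E₇. -/

set_option autoImplicit false

namespace Cfsg.Agent.H63.E7

open Cfsg.Lie Cfsg.Agent.H37 Cfsg.Agent.H38 Cfsg.Agent.H13 Subgroup Multiplicative

theorem exists_compl {G S : Type*} [Group G] [Finite G] [Group S] {s : ℕ} [hs : Fact s.Prime] (φ : G →* S)
    (hφ : Function.Surjective φ) {Q : Subgroup S} (hQ : IsPGroup s Q) (hi : ¬ s ∣ Q.index) :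
    ∃ P B : Subgroup G, IsPGroup s P ∧ P.map φ = Q ∧ Inv B P ∧ (Nat.card B).Coprime s ∧
      ∀ m, (∀ e ∈ Q, m * e * m⁻¹ ∈ Q) → ∃ b ∈ B, ∃ q ∈ Q, m = φ b * q := by
  obtain ⟨P, h1, h2, h3⟩ := lift_norm φ ⊤ hQ fun x _ => (hφ x).imp fun _ h => ⟨trivial, h⟩
  have h4 : ¬ s ∣ P.index := by
    rw [← relIndex_mul_index h1.le, top_inf_eq, Q.index_comap_of_surjective hφ]
    exact fun h => (hs.out.dvd_mul.1 h).elim (by simpa using h1.not_dvd) hi
  have h5 : ¬ s ∣ (P.subgroupOf (normalizer (P : Set G))).index :=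
    fun h => h4 (h.trans (relIndex_dvd_index_of_le le_normalizer))
  obtain ⟨k, hk⟩ := (h1.isPGroup.comap_of_injective (normalizer (P : Set G)).subtype (subtype_injective _)).exists_card_eq
  obtain ⟨B, hB⟩ := exists_left_complement'_of_coprime (N := P.subgroupOf (normalizer (P : Set G))) (by
    change Nat.Coprime (Nat.card (P.comap _)) _
    rw [hk]; exact Nat.Coprime.pow_left _ ((Nat.Prime.coprime_iff_not_dvd hs.out).2 h5))
  refine ⟨P, B.map (Subgroup.subtype _), h1.isPGroup, h2, ?_, ?_, fun m hm => ?_⟩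
  · rintro _ ⟨b, -, rfl⟩ x hx
    exact (mem_normalizer_iff.1 b.2 x).1 hx
  · rw [card_map_of_injective (subtype_injective _), ← hB.index_eq_card]
    exact ((Nat.Prime.coprime_iff_not_dvd hs.out).2 h5).symm
  · obtain ⟨g, rfl⟩ := hφ m
    obtain ⟨g', -, a, b⟩ := h3 g trivial hm
    obtain ⟨⟨x, y⟩, e⟩ := hB.2 ⟨g', mem_normalizer_fintype a⟩
    refine ⟨x.1.1, ⟨_, x.2, rfl⟩, φ y.1.1, h2.le ⟨_, y.2, rfl⟩, ?_⟩
    rw [← b, ← map_mul]
    exact congrArg (fun z : normalizer (P : Set G) => φ z) e.symm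

variable [Chev chevE7] {hD : IsChev chevE7} {K Γ : Type*} [Field K] [Group Γ] [Finite Γ] (A : Cov hD K Γ) {s : ℕ}
  [hs : Fact s.Prime] {ζ : Kˣ}

theorem main (hζ : IsPrimitiveRoot ζ s) (ho : Odd s) (hi : ¬ s * s ∣ A.X.H.index) {l : List (Fin 7)} (hw : wd7 l ^ s = 1)
    (hl : act l (fun i => (cm 0 i : ZMod s)) ≠ fun i => (cm 0 i : ZMod s))
    (hfix : ∀ u : Fin 7 → ZMod s, act l u = u → Rat u → u = 0)
    {V J : Type} [AddCommGroup V] [Finite V] (hV : ∀ v : V, s • v = 0) (f : J → V → V)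
    (hirr : ∀ U : AddSubgroup V, (∀ j, ∀ v ∈ U, f j v ∈ U) → U = ⊥ ∨ U = ⊤)
    (hrat : ∀ v, ∃ w : List J, w.foldr f v = v + v) (hcard : s * s ≤ Nat.card V) {e₁ e₂ : V}
    (hind : ∀ j : ℕ, e₂ + j • e₁ ≠ 0) (he : e₁ ≠ 0)
    (hβ : Nat.card V ≤ s * s → (∀ v, ∃ a b : ℕ, v = a • e₁ + b • e₂) ∧ ∃ j, f j e₁ = e₁ + e₁ ∧ f j e₂ = e₂)
    (hcnt : ∀ L : V →+ (Fin 7 → ZMod s), Function.Injective L → (∀ j, ∃ l, ∀ v, act l (L v) = L (f j v)) → False)
    {G S : Type*} [Group G] [Finite G] [Group S] (ψ : G →* Γ) (hψ : Function.Injective ψ) (φ : G →* S)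
    (hφ : Function.Surjective φ) (ι : Multiplicative V →* S) (hι : Function.Injective ι) (hQ : ¬ s ∣ ι.range.index)
    (hm : ∀ j, ∃ m, ∀ v, m * ι (ofAdd v) * m⁻¹ = ι (ofAdd (f j v))) : False := by
  have hn : A.X.Rep (A.X.nw l) (wd7 l) := A.X.rep_nw l
  have hp : ∀ v, ι v ^ s = 1 := fun v => by
    rw [← map_pow, ← ofAdd_toAdd v, ← ofAdd_nsmul, hV, ofAdd_zero, map_one]
  have hc : ∀ v v', ι v * ι v' = ι v' * ι v := fun v v' => by rw [← map_mul, mul_comm, map_mul]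
  obtain ⟨P₀, B, p1, p2, p3, p4, p5⟩ := exists_compl φ hφ (Q := ι.range)
    (by rintro ⟨_, v, rfl⟩; exact ⟨1, Subtype.ext (by simpa using hp v)⟩) hQ
  have hb : ∀ j, ∃ b ∈ B, ∀ v, φ b * ι (ofAdd v) * (φ b)⁻¹ = ι (ofAdd (f j v)) := fun j => by
    obtain ⟨m, h⟩ := hm j
    obtain ⟨b, h1, _, ⟨q, rfl⟩, rfl⟩ := p5 m (by rintro _ ⟨v, rfl⟩; exact ⟨_, (h v).symm⟩)
    refine ⟨b, h1, fun v => ?_⟩
    rw [← h, mul_assoc (φ b) (ι q), hc q]; group
  obtain ⟨c, -, hc'⟩ := exists_conj_le (p := s) (D := DD A (wd7 l)) (C := ⊤) (fun h => hi (by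
    rw [← relIndex_mul_index (H_le_DD (A := A) (w := wd7 l))]
    exact mul_dvd_mul (DD_dvd hw hn fun g => not_mem_H hζ hl) h)) le_top (p1.map ψ) le_top
  let χ : G →* Γ := (MulAut.conj c).toMonoidHom.comp ψ
  have hχ : Function.Injective χ := (MulAut.conj c).injective.comp hψ
  obtain ⟨P, q1, q2⟩ := exists_mn p3 p2 fun U h1 h2 => by
    rcases hirr ⟨⟨⟨{v | ι (ofAdd v) ∈ U}, fun a b => by
        change ι (ofAdd _ * ofAdd _) ∈ U; rw [map_mul]; exact mul_mem a b⟩, by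
        change ι 1 ∈ U; rw [map_one]; exact one_mem _⟩, fun a => by
        change ι ((ofAdd _)⁻¹) ∈ U; rw [map_inv]; exact inv_mem a⟩ (fun j v hv => by
        obtain ⟨b, h3, h4⟩ := hb j
        change ι _ ∈ U; rw [← h4]; exact h2 b h3 _ hv) with e | e
    · refine .inl (eq_bot_iff.2 fun x hx => ?_)
      obtain ⟨v, rfl⟩ := h1 hx
      have : toAdd v = 0 := e.le hx
      rw [show v = 1 from this, map_one]; exact one_mem _
    · exact .inr (le_antisymm h1 (by rintro _ ⟨v, rfl⟩; exact e.ge trivial))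
  have hD : ∀ x ∈ P, χ x ∈ DD A (wd7 l) := fun x hx => hc' _ ⟨x, q1 hx, rfl⟩
  have : Nontrivial V := ⟨_, _, he⟩
  by_cases hP : Cm P
  · obtain ⟨ε, e1, e2, e3⟩ := q2.abel hι p4 (p1.to_le q1) hP
    let η := χ.comp ε
    have hη : Function.Injective η := hχ.comp e1
    have h1 : ∀ j, ∃ b, ∀ v, b * η (ofAdd v) * b⁻¹ = η (ofAdd (f j v)) := fun j => by
      obtain ⟨b, h3, h4⟩ := hb j
      refine ⟨χ b, fun v => Eq.trans ?_ (congrArg χ (e3 b h3 _ _ (h4 v)))⟩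
      rw [map_mul, map_mul, map_inv]; rfl
    by_cases hT : ∀ v, η v ∈ A.X.H
    · obtain ⟨L, h2, h3⟩ := toral hζ ho hV η hη hT
      exact hcnt L h2 fun j => (h1 j).elim fun b h => h3 b _ h
    obtain ⟨g, hg⟩ := not_forall.1 hT
    have h2 : ∀ w : List J, ∃ b, ∀ v, b * η (ofAdd v) * b⁻¹ = η (ofAdd (w.foldr f v)) := fun w => by
      induction w with
      | nil => exact ⟨1, by simp⟩
      | cons j w ih =>
        obtain ⟨b, h⟩ := ih
        obtain ⟨b', h'⟩ := h1 j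
        exact ⟨b' * b, fun v => by rw [List.foldr_cons, ← h', ← h]; group⟩
    have h3 : ∀ v, η (ofAdd v) ∈ A.X.H → v = 0 := fun v hv => by
      obtain ⟨w, e⟩ := hrat v
      obtain ⟨b, h⟩ := h2 w
      refine hη ((key hζ ho hw hfix hv (b := b) ?_ (hD _ (e2 g)) hg ((Commute.all _ _).map η) ?_).trans (map_one η).symm)
      · rw [← map_pow, ← ofAdd_nsmul, hV, ofAdd_zero, map_one]
      · rw [h, e, ofAdd_add, map_mul]
    obtain ⟨m, h4⟩ := DD_star hw (hD _ (e2 (ofAdd e₁))) (fun h => he (h3 _ h)) (hD _ (e2 (ofAdd e₂)))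
    refine hind m (h3 _ ?_)
    rw [ofAdd_add, ofAdd_nsmul, map_mul, map_pow]
    exact h4
  have hA : Cm (A.X.H.comap χ) := fun x hx y hy => hχ (by rw [map_mul, map_mul]; exact A.H_comm hx hy)
  obtain ⟨r1, r2⟩ := q2.nonab (A := A.X.H.comap χ) hA hs.out.one_lt
    (fun x hx hx' y hy => (DD_star hw (hD x hx) hx' (hD y hy)).imp fun i h => by
      change χ _ ∈ A.X.H; rwa [map_mul, map_pow])
    (by
      rw [relIndex_comap]
      exact (relIndex_le_of_le_right (by rintro _ ⟨x, hx, rfl⟩; exact hD x hx) index_ne_zero_of_finite).trans (DD_le hw hn))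
    (by rwa [← Nat.card_congr (MonoidHom.ofInjective hι).toEquiv]) hP
  rw [← Nat.card_congr (MonoidHom.ofInjective hι).toEquiv] at r1
  obtain ⟨r3, j, r4, r5⟩ := hβ r1
  obtain ⟨b, b1, b2⟩ := hb j
  obtain ⟨x, hx, ex⟩ := q2.map.ge ⟨ofAdd e₁, rfl⟩
  obtain ⟨y, hy, ey⟩ := q2.map.ge ⟨ofAdd e₂, rfl⟩
  have hk : ∀ u ∈ P, ∀ v ∈ P, φ u = φ v → ∃ k ∈ P, (∀ z ∈ P, Commute k z) ∧ u = k * v := fun u hu v hv e =>
    ⟨u * v⁻¹, mul_mem hu (inv_mem hv), r2 _ (mul_mem hu (inv_mem hv)) (by rw [map_mul, map_inv, e, mul_inv_cancel]),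
      by group⟩
  have hz : x * y * x⁻¹ * y⁻¹ ∈ P := mul_mem (mul_mem (mul_mem hx hy) (inv_mem hx)) (inv_mem hy)
  have hz' : ∀ u ∈ P, Commute (x * y * x⁻¹ * y⁻¹) u := r2 _ hz (by
    simp only [map_mul, map_inv]; rw [ex, ey, hc]; group)
  set z := x * y * x⁻¹ * y⁻¹ with hzd
  have hn' : ∀ n : ℕ, x ^ n * y = z ^ n * y * x ^ n := fun n => by
    induction n with
    | zero => simp
    | succ n ih =>
      have : x * y = z * y * x := by rw [hzd]; group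
      rw [pow_succ' x, mul_assoc, ih, ← mul_assoc, ← mul_assoc, ← ((hz' x hx).pow_left n).eq, mul_assoc _ x, this,
        pow_succ z]
      group
  obtain ⟨g, g1, g2⟩ : ∃ g ∈ P, χ g ∉ A.X.H := by
    by_contra! h
    exact hP fun u hu v hv => hA u (h u hu) v (h v hv)
  have z1 : z = 1 := by
    refine hχ ((key hζ ho hw hfix (b := χ b) ?_ ?_ (hD g g1) g2 ((hz' g g1).symm.map χ) ?_).trans (map_one χ).symm)
    · simp only [hzd, map_mul, map_inv]; exact DD_comm (hD x hx) (hD y hy)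
    · have := hn' s
      rw [r2 _ (pow_mem hx s) (by rw [map_pow, ex, hp]) y hy, mul_left_inj, eq_comm, mul_eq_right] at this
      rw [← map_pow, this, map_one]
    · obtain ⟨k, k1, k2, k3⟩ := hk _ (q2.inv b b1 x hx) _ (mul_mem hx hx) (by
        simp only [map_mul, map_inv]; rw [ex, b2, r4, ofAdd_add, map_mul])
      obtain ⟨k', k1', k2', k3'⟩ := hk _ (q2.inv b b1 y hy) _ hy (by
        simp only [map_mul, map_inv]; rw [ey, b2, r5])
      rw [← map_inv, ← map_mul, ← map_mul, ← map_mul]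
      congr 1
      have e : b * z * b⁻¹ = (b * x * b⁻¹) * (b * y * b⁻¹) * (b * x * b⁻¹)⁻¹ * (b * y * b⁻¹)⁻¹ := by rw [hzd]; group
      have e2 := hn' 2
      rw [sq, sq] at e2
      rw [e, k3, k3', mul_inv_eq_iff_eq_mul, mul_inv_eq_iff_eq_mul]
      calc _ = k * k' * (x * x * y) := by rw [← mul_assoc, mul_assoc k, ← (k2' _ (mul_mem hx hx)).eq]; group
        _ = _ := by
          rw [e2, mul_assoc (z * z) (k' * y), mul_assoc k' y, ← mul_assoc y, ← (k2 y hy).eq, ← mul_assoc k', ← mul_assoc k',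
            ← (k2 k' k1').eq, ← mul_assoc (k * k'), ← mul_assoc (k * k'),
            ((k2 _ (mul_mem hz hz)).mul_left (k2' _ (mul_mem hz hz))).eq]
          group
  have hxy : Commute x y := by
    have := hn' 1
    rwa [z1, pow_one, pow_one, one_mul] at this
  have hgen : ∀ u ∈ P, ∃ k, (∀ z ∈ P, Commute k z) ∧ ∃ a b : ℕ, u = k * (x ^ a * y ^ b) := fun u hu => by
    obtain ⟨v, hv⟩ := q2.map.le ⟨u, hu, rfl⟩
    obtain ⟨a, b, e⟩ := r3 (toAdd v)
    obtain ⟨k, -, k2, k3⟩ := hk u hu _ (mul_mem (pow_mem hx a) (pow_mem hy b)) (by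
      rw [← hv, ← ofAdd_toAdd v, e, ofAdd_add, ofAdd_nsmul, ofAdd_nsmul]
      simp only [map_mul, map_pow]; rw [ex, ey])
    exact ⟨k, k2, a, b, k3⟩
  refine hP fun u hu v hv => ?_
  obtain ⟨k, k2, a, b, rfl⟩ := hgen u hu
  refine ((k2 v hv).mul_left ?_).eq
  obtain ⟨k', k2', a', b', rfl⟩ := hgen v hv
  exact (k2' _ (mul_mem (pow_mem hx a) (pow_mem hy b))).symm.mul_right
    ((((Commute.refl x).pow_pow a a').mul_right (hxy.pow_pow a b')).mul_left
      ((hxy.symm.pow_pow b a').mul_right ((Commute.refl y).pow_pow b b')))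

end Cfsg.Agent.H63.E7
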