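import Cfsg.Agent.H63.E7.Wy
import Cfsg.Agent.H63.E7.Grp

/-! The `s`-torsion of the torus of E₇ and a Sylow `s`-subgroup for `s = 5, 7`. -/

set_option autoImplicit false

namespace Cfsg.Agent.H63.E7

open Finset Cfsg.Lie Cfsg.Agent.H37 Cfsg.Agent.H38 Subgroup
open scoped Matrix

variable [Chev chevE7] {hD : IsChev chevE7} {K Γ : Type*} [Field K] [Group Γ] (A : Cov hD K Γ) {s : ℕ} (ζ : Kˣ)

def ey (y : Fin 7 → ℤ) : Γ := A.T (expY (D := chevE7) ζ y)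

/-- `u` is the vector of logarithms of the values of the fundamental roots on `t` -/
def Lg (t : Γ) (u : Fin 7 → ZMod s) : Prop := ∃ y, t = ey A ζ y ∧ u = fun i => (uu y i : ZMod s)

variable {A ζ}

theorem Lg.mem {t : Γ} {u : Fin 7 → ZMod s} (h : Lg A ζ t u) : t ∈ A.X.H := by
  obtain ⟨y, rfl, -⟩ := h
  exact A.torus_mem _

theorem Lg.uniq (hζ : IsPrimitiveRoot ζ s) {t : Γ} {u u' : Fin 7 → ZMod s} (h : Lg A ζ t u) (h' : Lg A ζ t u') :
    u = u' := by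
  obtain ⟨y, rfl, rfl⟩ := h
  obtain ⟨y', e, rfl⟩ := h'
  funext i
  have h1 := A.torus_x (expY (D := chevE7) ζ y) (sp7 i) 1
  have h2 := A.torus_x (expY (D := chevE7) ζ y') (sp7 i) 1
  change ey A ζ y * _ * (ey A ζ y)⁻¹ = _ at h1
  rw [e] at h1
  have h3 := A.faithful.x_inj _ (h1.symm.trans h2)
  rw [mul_one, mul_one, Units.val_inj] at h3
  have h4 : ζ ^ uu y i = ζ ^ uu y' i :=
    ((rootChar_expY (D := chevE7) (sp7 i) ζ y).symm.trans h3).trans (rootChar_expY (D := chevE7) (sp7 i) ζ y')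
  rw [zpow_eq_zpow_iff_modEq, ← hζ.eq_orderOf] at h4
  exact (ZMod.intCast_eq_intCast_iff _ _ _).2 h4

theorem Lg.mul {t t' : Γ} {u u' : Fin 7 → ZMod s} (h : Lg A ζ t u) (h' : Lg A ζ t' u') : Lg A ζ (t * t') (u + u') := by
  obtain ⟨y, rfl, rfl⟩ := h
  obtain ⟨y', rfl, rfl⟩ := h'
  refine ⟨y + y', ((congrArg A.T (expY_add (D := chevE7) ζ y y')).trans (map_mul _ _ _)).symm, funext fun i => ?_⟩
  simp [uu]

theorem Lg.eq_one (hζ : IsPrimitiveRoot ζ s) (ho : Odd s) {t : Γ} (h : Lg A ζ t (0 : Fin 7 → ZMod s)) : t = 1 := by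
  obtain ⟨y, rfl, e⟩ := h
  have : expY (D := chevE7) ζ y = 1 := funext fun j => by
    refine (hζ.zpow_eq_one_iff_dvd _).2 (IsCoprime.dvd_of_dvd_mul_left (y := 2) ?_ ?_)
    · exact Nat.isCoprime_iff_coprime.2 (Nat.coprime_two_right.2 ho)
    · rw [two_mul_eq y j]
      exact dvd_sum fun i _ => ((ZMod.intCast_zmod_eq_zero_iff_dvd _ _).1 (congrFun e i).symm).mul_right _
  rw [ey, this, map_one]

theorem Lg.rep {t n : Γ} {u : Fin 7 → ZMod s} {l : List (Fin 7)} (h : Lg A ζ t u) (hn : A.X.Rep n (wd7 l)) :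
    Lg A ζ (n * t * n⁻¹) (act l u) := by
  obtain ⟨y, rfl, rfl⟩ := h
  refine ⟨vm y (wd7 l), (A.rep_conj_torus hn _).trans (congrArg A.T (zact_expY _ _ _)), ?_⟩
  rw [uu_wd]
  exact (act_map (Int.castRingHom (ZMod s)) l (uu y)).symm

theorem exists_lg (hζ : IsPrimitiveRoot ζ s) (ho : Odd s) {t : Γ} (ht : t ∈ A.X.H) (h : t ^ s = 1) :
    ∃ u : Fin 7 → ZMod s, Lg A ζ t u := by
  have : NeZero s := ⟨ho.pos.ne'⟩
  obtain ⟨c, rfl⟩ := A.mem_H_iff.1 ht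
  obtain ⟨k, hk⟩ := ho
  have h1 : ∀ r : Fin chevE7.nroots, H39.rootChar chevE7 r (c ^ s) = 1 := fun r =>
    (A.comm_x_iff _ r).1 fun u => by rw [map_pow, h, one_mul, mul_one]
  let d : Fin 7 → Kˣ := c ^ s
  have h2 : zact (Matrix.of cm) d = 1 := funext fun j => by
    have : ∏ i : Fin 7, d i ^ chevE7.cartan i (sp7 j) = 1 := (H39.rootChar_apply (D := chevE7) _ d).symm.trans (h1 (sp7 j))
    exact (prod_congr rfl fun i _ => congrArg (d i ^ ·) (cartan_cm i j).symm).trans this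
  have h3 : Matrix.of cm * Matrix.of adj = Matrix.diagonal fun _ => 2 := by
    ext i j; rw [Matrix.diagonal_apply]; exact cm_adj i j
  have h4 : ∀ j, d j ^ 2 = 1 := fun j => by
    have := congrFun (zact_mul (Matrix.of cm) (Matrix.of adj) d) j
    rwa [h3, h2, map_one, zact_diagonal, Pi.one_apply, zpow_ofNat] at this
  have h5 : ∀ j : Fin 7, ∃ i : ℕ, ζ ^ i = c j ^ (s + 1) := fun j => by
    obtain ⟨i, -, e⟩ := hζ.eq_pow_of_mem_rootsOfUnity (ξ := c j ^ (s + 1)) (by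
      rw [mem_rootsOfUnity, ← pow_mul, mul_comm, pow_mul, show s + 1 = 2 * (k + 1) by omega, pow_mul]
      exact (congrArg (· ^ (k + 1)) (h4 j)).trans (one_pow _))
    exact ⟨i, e⟩
  choose y hy using h5
  refine ⟨_, fun j => y j, ?_, rfl⟩
  have : expY (D := chevE7) ζ (fun j : Fin 7 => (y j : ℤ)) = c ^ (s + 1) := funext fun j => (zpow_natCast _ _).trans (hy j)
  rw [ey, this, map_pow, pow_succ, h, one_mul]

theorem rep_pow {g : Γ} {w : P7} (h : A.X.Rep g w) (m : ℕ) : A.X.Rep (g ^ m) (w ^ m) := by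
  induction m with
  | zero => simpa using A.X.rep_one
  | succ m ih => rw [pow_succ, pow_succ]; exact ih.mul h

variable (A) in
/-- the torus extended by a cyclic subgroup of the Weyl group -/
def DD (w : P7) : Subgroup Γ where
  carrier := {g | ∃ i : ℤ, A.X.Rep g (w ^ i)}
  one_mem' := ⟨0, by simpa using A.X.rep_one⟩
  mul_mem' := fun ⟨i, a⟩ ⟨j, b⟩ => ⟨i + j, by rw [zpow_add]; exact a.mul b⟩
  inv_mem' := fun ⟨i, a⟩ => ⟨-i, by rw [zpow_neg]; exact a.inv⟩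

variable {w : P7}

theorem H_le_DD : A.X.H ≤ DD A w := fun g hg => ⟨0, by simpa using A.X.rep_one.H_mul hg⟩

theorem DD_comm {x y : Γ} (hx : x ∈ DD A w) (hy : y ∈ DD A w) : x * y * x⁻¹ * y⁻¹ ∈ A.X.H := by
  obtain ⟨i, a⟩ := hx
  obtain ⟨j, b⟩ := hy
  have := ((a.mul b).mul a.inv).mul b.inv
  rw [show w ^ i * w ^ j * (w ^ i)⁻¹ * (w ^ j)⁻¹ = 1 by group] at this
  exact this.mem_H

variable [hs : Fact s.Prime]

omit [Chev chevE7] in
theorem exists_cong {i : ℤ} (hi : ¬ (s : ℤ) ∣ i) (j : ℤ) : ∃ m : ℕ, (s : ℤ) ∣ j + i * m := by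
  refine ⟨(-(j : ZMod s) / (i : ZMod s)).val, (ZMod.intCast_zmod_eq_zero_iff_dvd _ _).1 ?_⟩
  have : (i : ZMod s) ≠ 0 := fun h => hi ((ZMod.intCast_zmod_eq_zero_iff_dvd _ _).1 h)
  push_cast
  rw [ZMod.natCast_zmod_val]
  field_simp
  ring

omit hs [Chev chevE7] in
theorem zpow_dvd (hw : w ^ s = 1) {i : ℤ} (h : (s : ℤ) ∣ i) : w ^ i = 1 := by
  obtain ⟨k, rfl⟩ := h
  rw [zpow_mul, zpow_natCast, hw, one_zpow]

theorem DD_star (hw : w ^ s = 1) {x y : Γ} (hx : x ∈ DD A w) (hx' : x ∉ A.X.H) (hy : y ∈ DD A w) :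
    ∃ m : ℕ, y * x ^ m ∈ A.X.H := by
  obtain ⟨i, a⟩ := hx
  obtain ⟨j, b⟩ := hy
  obtain ⟨m, hm⟩ := exists_cong (s := s) (i := i) (fun h => hx' (zpow_dvd hw h ▸ a).mem_H) j
  have := b.mul (rep_pow a m)
  rw [← zpow_natCast, ← zpow_natCast, ← zpow_mul, ← zpow_add, zpow_dvd hw hm, zpow_natCast] at this
  exact ⟨m, this.mem_H⟩

theorem DD_gen (hw : w ^ s = 1) {x : Γ} {i : ℤ} (a : A.X.Rep x (w ^ i)) (hi : ¬ (s : ℤ) ∣ i) :
    ∃ m : ℕ, A.X.Rep (x ^ m) w := by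
  obtain ⟨m, hm⟩ := exists_cong hi (-1)
  have := rep_pow a m
  rw [← zpow_natCast (w ^ i), ← zpow_mul, show i * m = -1 + i * m + 1 by ring, zpow_add, zpow_dvd hw hm, one_mul,
    zpow_one] at this
  exact ⟨m, this⟩

theorem DD_le (hw : w ^ s = 1) {n : Γ} (hn : A.X.Rep n w) : A.X.H.relIndex (DD A w) ≤ s := by
  let f : Fin s → DD A w ⧸ A.X.H.subgroupOf (DD A w) := fun m =>
    QuotientGroup.mk ⟨n ^ m.1, m.1, by rw [zpow_natCast]; exact rep_pow hn _⟩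
  have hf : Function.Surjective f := by
    rintro ⟨g, i, a⟩
    have h0 : (0 : ℤ) < s := by exact_mod_cast hs.out.pos
    have h1 := Int.emod_nonneg i h0.ne'
    have h2 := Int.emod_lt_of_pos i h0
    refine ⟨⟨(i % s).toNat, by omega⟩, QuotientGroup.eq.2 ?_⟩
    have := rep_pow hn (i % s).toNat
    rw [← zpow_natCast w, Int.toNat_of_nonneg h1, ← zpow_eq_zpow_emod' _ hw] at this
    exact this.inv_mul_mem_H a
  simpa [relIndex, index] using Nat.card_le_card_of_surjective f hf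

theorem DD_dvd (hw : w ^ s = 1) {n : Γ} (hn : A.X.Rep n w) (h : ∀ g, A.X.Rep g w → g ∉ A.X.H) :
    s ∣ A.X.H.relIndex (DD A w) := by
  have : (A.X.H.subgroupOf (DD A w)).Normal := ⟨fun a ha ⟨g, i, b⟩ => b.conj_mem_H ha⟩
  have h1 : n ^ A.X.H.relIndex (DD A w) ∈ A.X.H :=
    (A.X.H.subgroupOf (DD A w)).pow_index_mem ⟨n, 1, by rwa [zpow_one]⟩
  by_contra hd
  obtain ⟨m, hm⟩ := DD_gen hw (i := A.X.H.relIndex (DD A w)) (by rw [zpow_natCast]; exact rep_pow hn _)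
    (by exact_mod_cast hd)
  exact h _ hm (pow_mem h1 m)

theorem not_mem_H (hζ : IsPrimitiveRoot ζ s) {l : List (Fin 7)}
    (hl : act l (fun i => (cm 0 i : ZMod s)) ≠ fun i => (cm 0 i : ZMod s)) {g : Γ} (h : A.X.Rep g (wd7 l)) :
    g ∉ A.X.H := fun hg => by
  have h1 : Lg A ζ (ey A ζ (Pi.single 0 1)) fun i => (cm 0 i : ZMod s) := ⟨_, rfl, funext fun i => by
    rw [uu_apply, sum_eq_single 0 (fun b _ h => by simp [h]) (by simp)]; simp⟩
  have h2 := h1.rep h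
  rw [A.H_comm hg h1.mem, mul_inv_cancel_right] at h2
  exact hl (h2.uniq hζ h1)

theorem key (hζ : IsPrimitiveRoot ζ s) (ho : Odd s) {l : List (Fin 7)} (hw : wd7 l ^ s = 1)
    (hfix : ∀ u : Fin 7 → ZMod s, act l u = u → Rat u → u = 0) {t g b : Γ} (ht : t ∈ A.X.H) (h1 : t ^ s = 1)
    (hg : g ∈ DD A (wd7 l)) (hg' : g ∉ A.X.H) (hc : Commute g t) (hb : b * t * b⁻¹ = t * t) : t = 1 := by
  obtain ⟨u, hu⟩ := exists_lg hζ ho ht h1
  obtain ⟨i, a⟩ := hg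
  obtain ⟨m, hm⟩ := DD_gen hw a fun h => hg' (zpow_dvd hw h ▸ a).mem_H
  have h2 := hu.rep hm
  rw [(hc.pow_left m).eq, mul_inv_cancel_right] at h2
  obtain ⟨n, w, hn, e⟩ := exists_rep_conj A.faithful (A.mem_grp b) (S := {t}) (by simpa using ht)
    (by simpa [hb] using mul_mem ht ht)
  obtain ⟨l', rfl⟩ := exists_wd7 hn.mem_W
  have h3 := hu.rep hn
  rw [e t rfl, hb] at h3
  obtain ⟨k, hk⟩ := id ho
  have h4 : Rat u := rat_of (l := l') ((h3.uniq hζ (hu.mul hu)).trans (two_smul _ u).symm) (a := k + 1) (by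
    have : ((2 * k + 1 : ℕ) : ZMod s) = 0 := by rw [← hk, ZMod.natCast_self]
    push_cast at this
    linear_combination this)
  exact (hfix u (h2.uniq hζ hu) h4 ▸ hu).eq_one hζ ho

theorem toral (hζ : IsPrimitiveRoot ζ s) (ho : Odd s) {V : Type*} [AddCommGroup V] (hV : ∀ v : V, s • v = 0)
    (ε : Multiplicative V →* Γ) (hε : Function.Injective ε) (h : ∀ v, ε v ∈ A.X.H) :
    ∃ L : V →+ (Fin 7 → ZMod s), Function.Injective L ∧ ∀ (b : Γ) (f : V → V),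
      (∀ v, b * ε (.ofAdd v) * b⁻¹ = ε (.ofAdd (f v))) → ∃ l, ∀ v, act l (L v) = L (f v) := by
  have h1 : ∀ v : V, ∃ u : Fin 7 → ZMod s, Lg A ζ (ε (.ofAdd v)) u := fun v =>
    exists_lg hζ ho (h _) (by rw [← map_pow, ← ofAdd_nsmul, hV, ofAdd_zero, map_one])
  choose L hL using h1
  refine ⟨AddMonoidHom.mk' L fun a b => (hL (a + b)).uniq hζ (by rw [ofAdd_add, map_mul]; exact (hL a).mul (hL b)),
    (injective_iff_map_eq_zero _).2 fun v e => ?_, fun b f hb => ?_⟩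
  · have : L v = 0 := e
    exact hε (((this ▸ hL v).eq_one hζ ho).trans (map_one ε).symm)
  · obtain ⟨n, w, hn, e⟩ := exists_rep_conj A.faithful (A.mem_grp b) (S := Set.range ε)
      (by rintro _ ⟨v, rfl⟩; exact h v) (by rintro _ ⟨v, rfl⟩; exact (hb v).symm ▸ h _)
    obtain ⟨l, rfl⟩ := exists_wd7 hn.mem_W
    refine ⟨l, fun v => ?_⟩
    have := (hL v).rep hn
    rw [e _ ⟨_, rfl⟩, hb] at this
    exact this.uniq hζ (hL _)

end Cfsg.Agent.H63.E7
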