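import Mathlib

/-! The 56 minuscule weights of E₇ on the `s`-torsion of the torus (coordinates: values of the fundamental roots). -/

set_option autoImplicit false

namespace Cfsg.Agent.H63.E7

open Finset

def cm : Fin 7 → Fin 7 → ℤ := ![![2, 0, -1, 0, 0, 0, 0], ![0, 2, 0, -1, 0, 0, 0], ![-1, 0, 2, -1, 0, 0, 0],
  ![0, -1, -1, 2, -1, 0, 0], ![0, 0, 0, -1, 2, -1, 0], ![0, 0, 0, 0, -1, 2, -1], ![0, 0, 0, 0, 0, -1, 2]]

/-- twice the inverse Cartan matrix -/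
def adj : Fin 7 → Fin 7 → ℤ := ![![4, 4, 6, 8, 6, 4, 2], ![4, 7, 8, 12, 9, 6, 3], ![6, 8, 12, 16, 12, 8, 4],
  ![8, 12, 16, 24, 18, 12, 6], ![6, 9, 12, 18, 15, 10, 5], ![4, 6, 8, 12, 10, 8, 4], ![2, 3, 4, 6, 5, 4, 3]]

def mwL : List (List ℤ) := [[2, 3, 4, 6, 5, 4, 3], [2, 3, 4, 6, 5, 4, 1], [2, 3, 4, 6, 5, 2, 1], [2, 3, 4, 6, 3, 2, 1], [2, 3, 4, 4, 3, 2, 1], [2, 1, 4, 4, 3, 2, 1], [2, 3, 2, 4, 3, 2, 1], [2, 1, 2, 4, 3, 2, 1], [0, 3, 2, 4, 3, 2, 1], [0, 1, 2, 4, 3, 2, 1], [2, 1, 2, 2, 3, 2, 1], [0, 1, 2, 2, 3, 2, 1], [2, 1, 2, 2, 1, 2, 1], [0, 1, 0, 2, 3, 2, 1], [0, 1, 2, 2, 1, 2, 1], [2, 1, 2, 2, 1, 0, 1], [0, 1, 0, 2, 1, 2, 1], [0, 1, 2, 2, 1, 0, 1], [2, 1, 2, 2, 1, 0, -1], [0, 1, 0, 0, 1, 2, 1], [0, 1, 0, 2, 1, 0, 1], [0, 1, 2, 2, 1, 0, -1], [0, -1, 0, 0, 1, 2, 1], [0, 1, 0, 0, 1, 0, 1], [0, 1, 0, 2, 1, 0, -1], [0, -1, 0, 0, 1, 0, 1], [0, 1, 0, 0, -1, 0, 1],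 [0, 1, 0, 0, 1, 0, -1], [0, -1, 0, 0, -1, 0, 1], [0, -1, 0, 0, 1, 0, -1], [0, 1, 0, 0, -1, 0, -1], [0, -1, 0, -2, -1, 0, 1], [0, -1, 0, 0, -1, 0, -1], [0, 1, 0, 0, -1, -2, -1], [0, -1, -2, -2, -1, 0, 1], [0, -1, 0, -2, -1, 0, -1], [0, -1, 0, 0, -1, -2, -1], [-2, -1, -2, -2, -1, 0, 1], [0, -1, -2, -2, -1, 0, -1], [0, -1, 0, -2, -1, -2, -1], [-2, -1, -2, -2, -1, 0, -1], [0, -1, -2, -2, -1, -2, -1], [0, -1, 0, -2, -3, -2, -1], [-2, -1, -2, -2, -1, -2, -1], [0, -1, -2, -2, -3, -2, -1], [-2, -1, -2, -2, -3, -2, -1], [0, -1, -2, -4, -3, -2, -1], [-2, -1, -2, -4, -3, -2, -1], [0, -3, -2, -4, -3, -2, -1], [-2, -3, -2, -4, -3, -2, -1], [-2, -1, -4, -4, -3, -2, -1], [-2, -3, -4, -4, -3, -2, -1], [-2, -3, -4, -6, -3, -2, -1], [-2, -3, -4, -6, -5, -2, -1], [-2, -3, -4, -6, -5, -4, -1], [-2, -3, -4, -6, -5, -4, -3]]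

/-- twice the weights, in terms of the fundamental roots -/
def mw (k : Fin 56) (i : Fin 7) : ℤ := (mwL.getD k []).getD i 0

def pmL : List (List ℕ) := [[0, 1, 2, 3, 4, 5, 8, 9, 6, 7, 11, 10, 14, 13, 12, 17, 16, 15, 21, 19, 20, 18, 22, 23, 24, 25, 26, 27, 28, 29, 30, 31, 32, 33, 37, 35, 36, 34, 40, 39, 38, 43, 42, 41, 45, 44, 47, 46, 49, 48, 50, 51, 52, 53, 54, 55], [0, 1, 2, 3, 5, 4, 7, 6, 9, 8, 10, 11, 12, 13, 14, 15, 16, 17, 18, 22, 20, 21, 19, 25, 24, 23, 28, 29, 26, 27, 32, 31, 30, 36, 34, 35, 33, 37, 38, 39, 40, 41, 42, 43, 44, 45, 48, 49, 46, 47, 51, 50, 52, 53, 54, 55], [0, 1, 2, 3, 6, 7, 4, 5, 8, 9, 10, 13, 12, 11, 16, 15, 14, 20, 18, 19, 17, 24, 22, 23, 21, 25, 26, 27, 28, 29, 30, 34, 32, 33, 31, 38, 36, 37, 35, 41, 40, 39, 44, 43, 42, 45, 46, 50, 48, 51, 47, 49, 52, 53, 54, 55], [0, 1, 2, 4, 3, 5, 6, 10, 8, 11, 7, 9, 12, 13, 14, 15, 19, 17, 18, 16,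 23, 21, 22, 20, 27, 25, 26, 24, 31, 29, 30, 28, 35, 33, 34, 32, 39, 37, 38, 36, 40, 41, 42, 43, 46, 47, 44, 45, 48, 49, 50, 52, 51, 53, 54, 55], [0, 1, 3, 2, 4, 5, 6, 7, 8, 9, 12, 14, 10, 16, 11, 15, 13, 17, 18, 19, 20, 21, 22, 26, 24, 28, 23, 30, 25, 32, 27, 31, 29, 33, 34, 35, 36, 37, 38, 42, 40, 44, 39, 45, 41, 43, 46, 47, 48, 49, 50, 51, 53, 52, 54, 55], [0, 2, 1, 3, 4, 5, 6, 7, 8, 9, 10, 11, 15, 13, 17, 12, 20, 14, 18, 23, 16, 21, 25, 19, 24, 22, 26, 27, 28, 29, 33, 31, 36, 30, 34, 39, 32, 37, 41, 35, 43, 38, 42, 40, 44, 45, 46, 47, 48, 49, 50, 51, 52, 54, 53, 55], [1, 0, 2, 3, 4, 5, 6, 7, 8, 9, 10, 11, 12, 13, 14, 18, 16, 21, 15, 19, 24, 17, 22, 27, 20, 29, 30, 23, 32, 25, 26, 35, 28, 33, 38, 31, 36, 40, 34, 39, 37, 41, 42, 43, 44, 45, 46, 47, 48, 49, 50, 51, 52, 53, 55, 54]]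

def pm (i : Fin 7) (k : Fin 56) : Fin 56 := Fin.ofNat 56 ((pmL.getD i []).getD k 0)

theorem pm_pm : ∀ i k, pm i (pm i k) = k := by decide +kernel

theorem mw_pm : ∀ i k j, mw (pm i k) j = mw k j - if j = i then ∑ l, mw k l * cm i l else 0 := by decide +kernel

theorem cm_adj : ∀ i j, ∑ l, cm i l * adj l j = if i = j then 2 else 0 := by decide +kernel

theorem adj_cm : ∀ i j, ∑ l, adj i l * cm l j = if i = j then 2 else 0 := by decide +kernel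

section ring
variable {R : Type} [CommRing R]

def rf (i : Fin 7) (u : Fin 7 → R) : Fin 7 → R := fun j => u j - u i * (cm i j : R)

def wt (k : Fin 56) (u : Fin 7 → R) : R := ∑ i, (mw k i : R) * u i

def act (l : List (Fin 7)) (u : Fin 7 → R) : Fin 7 → R := l.foldr rf u

theorem wt_rf (k : Fin 56) (i : Fin 7) (u : Fin 7 → R) : wt k (rf i u) = wt (pm i k) u := by
  simp only [wt, rf, mw_pm, mul_sub, sum_sub_distrib, Int.cast_sub, sub_mul, Int.cast_ite, ite_mul, Int.cast_zero,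
    zero_mul, sum_ite_eq', mem_univ, if_true, Int.cast_sum, Int.cast_mul, sum_mul]
  congr 1
  exact sum_congr rfl fun l _ => by ring

theorem exists_perm (l : List (Fin 7)) : ∃ π : Equiv.Perm (Fin 56), ∀ k (u : Fin 7 → R), wt k (act l u) = wt (π k) u := by
  induction l with
  | nil => exact ⟨1, fun _ _ => rfl⟩
  | cons i l ih =>
    obtain ⟨π, h⟩ := ih
    exact ⟨π * Function.Involutive.toPerm (pm i) (pm_pm i), fun k u => (wt_rf k i _).trans (h _ u)⟩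

theorem wt_add (k : Fin 56) (u v : Fin 7 → R) : wt k (u + v) = wt k u + wt k v := by
  simp [wt, mul_add, sum_add_distrib]

theorem wt_smul (k : Fin 56) (a : R) (u : Fin 7 → R) : wt k (a • u) = a * wt k u := by
  simp only [wt, mul_sum, Pi.smul_apply, smul_eq_mul]
  exact sum_congr rfl fun _ _ => by ring

theorem act_map {R' : Type} [CommRing R'] (f : R →+* R') (l : List (Fin 7)) (u : Fin 7 → R) :
    (fun i => f (act l u i)) = act l fun i => f (u i) := by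
  induction l with
  | nil => rfl
  | cons i l ih =>
    funext j
    change f (rf i (act l u) j) = rf i (act l _) j
    rw [← ih]; simp [rf]

theorem act_zero (l : List (Fin 7)) : act l (0 : Fin 7 → R) = 0 := by
  induction l with
  | nil => rfl
  | cons i l ih =>
    change rf i (act l _) = _
    rw [ih]; funext j; simp [rf]

theorem act5 (u : Fin 7 → R) : act [0, 2, 3, 4] u =
    ![-u 0 - u 2 - u 3 - u 4, u 1 + u 3 + u 4, u 0, u 2, u 3, u 4 + u 5, u 6] := by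
  funext j; fin_cases j <;> simp [act, rf, cm] <;> ring

theorem act7 (u : Fin 7 → R) : act [0, 2, 3, 4, 5, 6] u =
    ![-u 0 - u 2 - u 3 - u 4 - u 5 - u 6, u 1 + u 3 + u 4 + u 5 + u 6, u 0, u 2, u 3, u 4, u 5] := by
  funext j; fin_cases j <;> simp [act, rf, cm] <;> ring

variable [DecidableEq R]

def cnt (u : Fin 7 → R) (j : R) : ℕ := #{k : Fin 56 | wt k u = j}

theorem cnt_act (l : List (Fin 7)) (u : Fin 7 → R) (j : R) : cnt (act l u) j = cnt u j := by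
  obtain ⟨π, h⟩ := exists_perm (R := R) l
  exact card_equiv π fun k => by simp [h]

/-- `u` is conjugate to `2u` -/
def Rat (u : Fin 7 → R) : Prop := ∀ j, cnt u (2 * j) = cnt u j

theorem rat_of {l : List (Fin 7)} {u : Fin 7 → R} (h : act l u = (2 : R) • u) {a : R} (ha : a * 2 = 1) : Rat u := fun j => by
  rw [← cnt_act l, h]
  refine congrArg card (filter_congr fun k _ => ?_)
  rw [wt_smul]
  exact ⟨fun e => by linear_combination a * e - (wt k u - j) * ha, fun e => by rw [e]⟩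

end ring

theorem fix5' : ∀ a b c : ZMod 5, cnt ![0, a, 0, 0, 0, b, c] 2 = cnt ![0, a, 0, 0, 0, b, c] 1 →
    ![0, a, 0, 0, 0, b, c] = 0 := by decide +kernel

theorem fix7' : ∀ a : ZMod 7, cnt ![0, a, 0, 0, 0, 0, 0] 2 = cnt ![0, a, 0, 0, 0, 0, 0] 1 →
    ![0, a, 0, 0, 0, 0, 0] = 0 := by decide +kernel

theorem fix5 {u : Fin 7 → ZMod 5} (h : act [0, 2, 3, 4] u = u) (hr : Rat u) : u = 0 := by
  rw [act5] at h
  have h0 : -u 0 - u 2 - u 3 - u 4 = u 0 := congrFun h 0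
  have h1 : u 1 + u 3 + u 4 = u 1 := congrFun h 1
  have h2 : u 0 = u 2 := congrFun h 2
  have h3 : u 2 = u 3 := congrFun h 3
  have h5 : u 4 + u 5 = u 5 := congrFun h 5
  have e4 : u 4 = 0 := by linear_combination h5
  have e3 : u 3 = 0 := by linear_combination h1 - e4
  have e : u = ![0, u 1, 0, 0, 0, u 5, u 6] := by
    funext j; fin_cases j <;> simp [h2, h3, e3, e4]
  have := hr 1
  rw [mul_one, e] at this
  exact e.trans (fix5' _ _ _ this)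

theorem fix7 {u : Fin 7 → ZMod 7} (h : act [0, 2, 3, 4, 5, 6] u = u) (hr : Rat u) : u = 0 := by
  rw [act7] at h
  have h1 : u 1 + u 3 + u 4 + u 5 + u 6 = u 1 := congrFun h 1
  have h2 : u 0 = u 2 := congrFun h 2
  have h3 : u 2 = u 3 := congrFun h 3
  have h4 : u 3 = u 4 := congrFun h 4
  have h5 : u 4 = u 5 := congrFun h 5
  have h6 : u 5 = u 6 := congrFun h 6
  have h7 : (7 : ZMod 7) = 0 := rfl
  have e6 : u 6 = 0 := by linear_combination 2 * h1 - 2 * h4 - 4 * h5 - 6 * h6 - u 6 * h7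
  have e : u = ![0, u 1, 0, 0, 0, 0, 0] := by
    funext j; fin_cases j <;> simp [h2, h3, h4, h5, h6, e6]
  have := hr 1
  rw [mul_one, e] at this
  exact e.trans (fix7' _ this)

/-- the vector with natural coordinates -/
def nv (s a b c d e f g : ℕ) : Fin 7 → ZMod s := ![a, b, c, d, e, f, g]

def ok5 (u : Fin 7 → ZMod 5) : Bool := decide (cnt u 2 = cnt u 1 → u = 0 ∨ cnt u 1 = 10)

def ok7 (u : Fin 7 → ZMod 7) : Bool := decide (cnt u 2 = cnt u 1 → cnt u 4 = cnt u 2 → u = 0 ∨ cnt u 1 ∈ [6, 8, 9])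

theorem alc5' : ∀ (a b : Fin 3) (c d e : Fin 2) (f : Fin 3) (g : Fin 6),
    2 * a.1 + 2 * b.1 + 3 * c.1 + 4 * d.1 + 3 * e.1 + 2 * f.1 + g.1 ≤ 5 → ok5 (nv 5 a b c d e f g) = true := by
  decide +kernel

theorem alc7' : ∀ (a b : Fin 4) (c : Fin 3) (d : Fin 2) (e : Fin 3) (f : Fin 4) (g : Fin 8),
    2 * a.1 + 2 * b.1 + 3 * c.1 + 4 * d.1 + 3 * e.1 + 2 * f.1 + g.1 ≤ 7 → ok7 (nv 7 a b c d e f g) = true := by
  decide +kernel

theorem alc5 {a b c d e f g : ℕ} (h : 2 * a + 2 * b + 3 * c + 4 * d + 3 * e + 2 * f + g ≤ 5) :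
    cnt (nv 5 a b c d e f g) 2 = cnt (nv 5 a b c d e f g) 1 →
      nv 5 a b c d e f g = 0 ∨ cnt (nv 5 a b c d e f g) 1 = 10 :=
  of_decide_eq_true (alc5' ⟨a, by omega⟩ ⟨b, by omega⟩ ⟨c, by omega⟩ ⟨d, by omega⟩ ⟨e, by omega⟩ ⟨f, by omega⟩
    ⟨g, by omega⟩ h)

theorem alc7 {a b c d e f g : ℕ} (h : 2 * a + 2 * b + 3 * c + 4 * d + 3 * e + 2 * f + g ≤ 7) :
    cnt (nv 7 a b c d e f g) 2 = cnt (nv 7 a b c d e f g) 1 → cnt (nv 7 a b c d e f g) 4 = cnt (nv 7 a b c d e f g) 2 →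
    nv 7 a b c d e f g = 0 ∨ cnt (nv 7 a b c d e f g) 1 ∈ [6, 8, 9] :=
  of_decide_eq_true (alc7' ⟨a, by omega⟩ ⟨b, by omega⟩ ⟨c, by omega⟩ ⟨d, by omega⟩ ⟨e, by omega⟩ ⟨f, by omega⟩
    ⟨g, by omega⟩ h)

theorem ne_of_act {R : Type} [CommRing R] {l : List (Fin 7)} {u : Fin 7 → R} (h : act l u = 0) : u = 0 := by
  induction l with
  | nil => exact h
  | cons i l ih =>
    refine ih ?_
    have h1 : ∀ j, act l u j - act l u i * (cm i j : R) = 0 := congrFun h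
    have h2 := h1 i
    have : cm i i = 2 := by fin_cases i <;> rfl
    rw [this] at h2
    have h3 : act l u i = 0 := by push_cast at h2; linear_combination -h2
    funext j
    simpa [h3] using h1 j

end Cfsg.Agent.H63.E7
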