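import Cfsg.Agent.H13.ChevFus
import Cfsg.Agent.H63.E7.Wt

/-! The Weyl group of E₇ on the coroot lattice; rational elements of order 5 and 7 of the torus. -/

set_option autoImplicit false

namespace Cfsg.Agent.H63.E7

open Finset Cfsg.Lie Cfsg.Agent.H37 Cfsg.Agent.H38
open scoped Matrix

abbrev P7 := Equiv.Perm (Fin chevE7.nroots)

def p7 (r : Fin chevE7.nroots) : (Fin 7 → ℤ) →ₗ[ℤ] ℤ := pr (D := chevE7) r

theorem p7_apply (r : Fin chevE7.nroots) (y : Fin 7 → ℤ) : p7 r y = ∑ i : Fin 7, y i * chevE7.cartan i r := rfl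

theorem p7_single (r : Fin chevE7.nroots) (i : Fin 7) : p7 r (Pi.single i 1) = chevE7.cartan i r := by
  rw [p7_apply, sum_eq_single i (fun b _ h => by simp [h]) (by simp), Pi.single_eq_same, one_mul]

theorem cartan_cm : ∀ i j : Fin 7, chevE7.cartan i (chevE7.simple j) = cm i j := by decide +kernel

variable [Chev chevE7]

def sp7 (i : Fin 7) : Fin chevE7.nroots := (rs chevE7).sp i

def wd7 (l : List (Fin 7)) : P7 := (rs chevE7).wd l

def vm (y : Fin 7 → ℤ) (w : P7) : Fin 7 → ℤ := (show Fin chevE7.rank → ℤ from y) ᵥ* wM (D := chevE7) w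

/-- the values of the fundamental roots -/
def uu (y : Fin 7 → ℤ) : Fin 7 → ℤ := fun i => p7 (sp7 i) y

theorem wd7_mem (l : List (Fin 7)) : wd7 l ∈ (rs chevE7).W := (rs chevE7).wd_mem_W l

theorem exists_wd7 {w : P7} (h : w ∈ (rs chevE7).W) : ∃ l, wd7 l = w := (rs chevE7).mem_W_iff.1 h

theorem wd7_append (l l' : List (Fin 7)) : wd7 (l ++ l') = wd7 l * wd7 l' := (rs chevE7).wd_append l l'

theorem vm_nil (y : Fin 7 → ℤ) : vm y (wd7 []) = y := by
  have : wM (D := chevE7) (wd7 []) = 1 := wM_one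
  rw [vm, this]; exact Matrix.vecMul_one _

theorem vm_cons (y : Fin 7 → ℤ) (i : Fin 7) (l : List (Fin 7)) :
    vm y (wd7 (i :: l)) = vm y (wd7 l) - uu (vm y (wd7 l)) i • Pi.single i 1 := by
  have h1 : wd7 (i :: l) = (rs chevE7).σ i * wd7 l := (rs chevE7).wd_cons i l
  have h2 := vecMul_wM_mul (D := chevE7) ((rs chevE7).σ_mem_W i) (wd7 l) y
  have h3 := vecMul_refl (D := chevE7) ((rs chevE7).sp i) (vm y (wd7 l))
  have h4 := cv_sp (D := chevE7) i
  rw [h1]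
  exact h2.trans (h3.trans (congrArg (fun x : Fin 7 → ℤ => vm y (wd7 l) - uu (vm y (wd7 l)) i • x) h4))

theorem p7_vm {w : P7} (hw : w ∈ (rs chevE7).W) (r : Fin chevE7.nroots) (y : Fin 7 → ℤ) : p7 (w r) (vm y w) = p7 r y :=
  pr_wM hw r y

theorem uu_apply (y : Fin 7 → ℤ) (j : Fin 7) : uu y j = ∑ i, y i * cm i j :=
  (p7_apply _ y).trans (sum_congr rfl fun i _ => congrArg (y i * ·) (cartan_cm i j))

theorem uu_wd (l : List (Fin 7)) (y : Fin 7 → ℤ) : uu (vm y (wd7 l)) = act l (uu y) := by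
  induction l with
  | nil => rw [vm_nil]; rfl
  | cons i l ih =>
    funext j
    change p7 _ _ = rf i (act l (uu y)) j
    rw [vm_cons, ← ih, map_sub, map_smul, p7_single]
    exact congrArg (fun x => uu (vm y (wd7 l)) j - uu (vm y (wd7 l)) i * x) (cartan_cm i j)

theorem two_mul_eq (y : Fin 7 → ℤ) (j : Fin 7) : 2 * y j = ∑ i, uu y i * adj i j := by
  simp only [uu_apply, sum_mul, mul_assoc]
  rw [sum_comm]
  simp only [← mul_sum, cm_adj]
  simp [mul_comm]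

theorem uu_adj (v : Fin 7 → ℤ) (j : Fin 7) : uu (fun l => ∑ i, v i * adj i l) j = 2 * v j := by
  simp only [uu_apply, sum_mul, mul_assoc]
  rw [sum_comm]
  simp only [← mul_sum, adj_cm]
  simp [mul_comm]

theorem wd_eq_one {l : List (Fin 7)} (h : ∀ u : Fin 7 → ℤ, act l u = u) : wd7 l = 1 := by
  have h1 : ∀ y : Fin 7 → ℤ, vm y (wd7 l) = y := fun y => funext fun j => by
    have := two_mul_eq (vm y (wd7 l)) j
    rw [uu_wd, h, ← two_mul_eq] at this
    omega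
  refine Equiv.ext fun r => Fin.ext (Chev.cartan_inj (Fin.is_lt _) (Fin.is_lt _) fun i hi => ?_)
  have := p7_vm (wd7_mem l) r (Pi.single ⟨i, hi⟩ 1)
  rwa [h1, p7_single, p7_single] at this

theorem exists_alc {s : ℕ} (hs : 0 < s) {h : ZMod s} (hh : h * 2 = 1) (u : Fin 7 → ZMod s) :
    ∃ l a b c d e f g, 2 * a + 2 * b + 3 * c + 4 * d + 3 * e + 2 * f + g ≤ s ∧ act l u = nv s a b c d e f g := by
  have : NeZero s := ⟨hs.ne'⟩
  let y : Fin 7 → ℤ := fun l => ∑ i, ((h * u i).val : ℤ) * adj i l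
  obtain ⟨μ, hμ⟩ : ∃ μ : Fin 7 → ℤ, ∀ r, p7 r (y - (s : ℤ) • μ) ≤ s :=
    exists_small (D := chevE7) y (m := s) (by exact_mod_cast hs)
  obtain ⟨w, hw, hd⟩ : ∃ w ∈ (rs chevE7).W, ∀ i, 0 ≤ uu (vm (y - (s : ℤ) • μ) w) i :=
    exists_dominant (D := chevE7) (y - (s : ℤ) • μ : Fin 7 → ℤ)
  obtain ⟨l, rfl⟩ := exists_wd7 hw
  set z := vm (y - (s : ℤ) • μ) (wd7 l) with hz
  obtain ⟨r, hr⟩ := (wd7 l).surjective ⟨125, by decide⟩
  have h1 : p7 ⟨125, by decide⟩ z ≤ s := by rw [hz, ← hr, p7_vm hw]; exact hμ _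
  have h2 : p7 ⟨125, by decide⟩ z = z 0 := by
    have : ∀ i : Fin 7, chevE7.cartan i 125 = if i = 0 then 1 else 0 := by decide +kernel
    rw [p7_apply]
    simp [this]
  have h3 := two_mul_eq z 0
  have h4 : ∀ i, ∃ n : ℕ, uu z i = n := fun i => ⟨_, (Int.toNat_of_nonneg (hd i)).symm⟩
  choose n hn using h4
  refine ⟨l, n 0, n 1, n 2, n 3, n 4, n 5, n 6, ?_, ?_⟩
  · simp only [hn, Fin.sum_univ_seven] at h3
    change _ = (n 0 : ℤ) * 4 + n 1 * 4 + n 2 * 6 + n 3 * 8 + n 4 * 6 + n 5 * 4 + n 6 * 2 at h3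
    omega
  · have h5 : u = fun i => Int.castRingHom (ZMod s) (uu (y - (s : ℤ) • μ) i) := funext fun i => by
      rw [uu, map_sub, map_smul]
      change _ = ((uu y i - s * _ : ℤ) : ZMod s)
      rw [uu_adj]
      push_cast
      simp only [ZMod.natCast_val, ZMod.cast_id', id, ZMod.natCast_self]
      linear_combination -u i * hh
    rw [h5, ← act_map, ← uu_wd]
    funext i
    change ((uu z i : ℤ) : ZMod s) = _
    rw [hn]
    fin_cases i <;> simp [nv]

theorem rat5 {u : Fin 7 → ZMod 5} (hr : Rat u) (h0 : u ≠ 0) : cnt u 1 = 10 := by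
  obtain ⟨l, a, b, c, d, e, f, g, h1, h2⟩ := exists_alc (s := 5) (by norm_num) (h := 3) rfl u
  have := alc5 h1
  simp only [← h2, cnt_act] at this
  exact (this (hr 1)).resolve_left fun h => h0 (ne_of_act h)

theorem rat7 {u : Fin 7 → ZMod 7} (hr : Rat u) (h0 : u ≠ 0) : cnt u 1 ∈ [6, 8, 9] := by
  obtain ⟨l, a, b, c, d, e, f, g, h1, h2⟩ := exists_alc (s := 7) (by norm_num) (h := 4) rfl u
  have := alc7 h1
  simp only [← h2, cnt_act] at this
  exact (this (hr 1) (hr 2)).resolve_left fun h => h0 (ne_of_act h)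

end Cfsg.Agent.H63.E7
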